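import Cfsg.Agent.S3996
import Cfsg.Agent.Solv.FrobCount

/-! Groups determined by the set of the numbers of elements of each order: a verified search
through the numerical constraints (Frobenius' theorem, `φ(k) ∣ m_k`). -/

namespace Cfsg.Lib.Nse

open Finset

/-- The numerical constraints satisfied by `m k = #{g | o(g) = k}` in a group of order `N`. -/
structure Num (m : ℕ → ℕ) (N : ℕ) : Prop where
  pos : N ≠ 0
  one : m 1 = 1
  tot : ∀ k, k.totient ∣ m k
  dvd : ∀ k d, m k ≠ 0 → d ∣ k → m d ≠ 0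
  ord : ∀ k, m k ≠ 0 → k ∣ N
  frob : ∀ n, n ∣ N → n ∣ ∑ d ∈ n.divisors, m d
  sum : N = ∑ d ∈ N.divisors, m d

/-- The number of elements of order `k`. -/
noncomputable def mk (G : Type*) [Group G] (k : ℕ) : ℕ := Nat.card {g : G // orderOf g = k}

theorem sum_mk (G : Type*) [Group G] [Finite G] {n : ℕ} (hn : n ≠ 0) :
    ∑ d ∈ n.divisors, mk G d = Nat.card {g : G // g ^ n = 1} := by
  classical
  have := Fintype.ofFinite G
  simp only [mk, Nat.card_eq_fintype_card, Fintype.card_subtype]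
  exact sum_card_orderOf_eq_card_pow_eq_one hn

theorem mk_ne_zero {G : Type*} [Group G] [Finite G] {k : ℕ} :
    mk G k ≠ 0 ↔ ∃ g : G, orderOf g = k := by
  rw [mk, Nat.card_ne_zero, nonempty_subtype]
  exact and_iff_left inferInstance

theorem num (G : Type*) [Group G] [Finite G] : Num (mk G) (Nat.card G) where
  pos := Nat.card_pos.ne'
  one := Cfsg.Lib.Solv.Count.cnt_eq_one orderOf_one fun _ hx => orderOf_eq_one_iff.1 hx
  tot k := Cfsg.Agent.S3996.totient_dvd k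
  dvd k d hk hd := by
    obtain ⟨g, rfl⟩ := mk_ne_zero.1 hk
    exact mk_ne_zero.2 ⟨g ^ (orderOf g / d), orderOf_pow_orderOf_div (orderOf_pos g).ne' hd⟩
  ord k hk := by
    obtain ⟨g, rfl⟩ := mk_ne_zero.1 hk
    exact orderOf_dvd_natCard g
  frob n hn := by
    rw [sum_mk G (ne_zero_of_dvd_ne_zero Nat.card_pos.ne' hn)]
    exact Cfsg.Lib.Solv.Frob.dvd_card_pow_eq_one hn
  sum := by
    rw [sum_mk G Nat.card_pos.ne']
    exact (Nat.card_congr (Equiv.subtypeUnivEquiv fun _ => pow_card_eq_one')).symm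

/-- Sum of the recorded values over the recorded orders dividing `n`. -/
def S : List (ℕ × ℕ) → ℕ → ℕ
  | [], _ => 0
  | x :: l, n => (bif n % x.1 == 0 then x.2 else 0) + S l n

/-- `d` is a recorded order. -/
def has (acc : List (ℕ × ℕ)) (d : ℕ) : Bool := acc.any fun x => x.1 == d

/-- The search. -/
def go (vals : List ℕ) (leaf : List (ℕ × ℕ) → Bool) :
    List (ℕ × ℕ × List ℕ) → List (ℕ × ℕ) → Bool
  | [], acc => leaf acc
  | c :: cs, acc => go vals leaf cs acc && (!(c.2.2.all (has acc)) || vals.all fun v =>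
      !(v % c.2.1 == 0 && (S acc c.1 + v) % c.1 == 0) || go vals leaf cs ((c.1, v) :: acc))

/-- The test at a leaf. -/
def leaf (vals : List ℕ) (tg : List (ℕ × ℕ)) (acc : List (ℕ × ℕ)) : Bool :=
  acc.any (fun x => S acc 0 % x.1 != 0) || vals.any (fun v => !acc.any (fun x => x.2 == v)) ||
    (List.range (S acc 0)).any (fun n => S acc 0 % (n + 1) == 0 && S acc (n + 1) % (n + 1) != 0) ||
    acc == tg

/-- The invariant of the search. -/
structure Inv (m : ℕ → ℕ) (ks : List ℕ) (acc : List (ℕ × ℕ)) : Prop where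
  sum : ∀ n, n ≠ 0 → ∑ d ∈ n.divisors with d ∉ ks, m d = S acc n
  has : ∀ d, m d ≠ 0 → d ∈ ks ∨ has acc d = true
  val : ∀ x ∈ acc, m x.1 = x.2 ∧ x.2 ≠ 0

variable {m : ℕ → ℕ} {N : ℕ}

theorem sum_step {k : ℕ} {ks : List ℕ} (hk : k ∉ ks) {n : ℕ} (hn : n ≠ 0) :
    ∑ d ∈ n.divisors with d ∉ ks, m d =
      (if k ∣ n then m k else 0) + ∑ d ∈ n.divisors with d ∉ k :: ks, m d := by
  classical
  split_ifs with h
  · rw [← Finset.add_sum_erase (a := k) _ _ (by simp [h, hn, hk])]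
    congr 2
    ext d
    simp only [mem_erase, mem_filter, List.mem_cons, not_or]
    tauto
  · rw [zero_add]
    congr 1
    ext d
    simp only [mem_filter, List.mem_cons, not_or, Nat.mem_divisors]
    constructor
    · rintro ⟨h1, h2⟩
      exact ⟨h1, fun h3 => h (h3 ▸ h1.1), h2⟩
    · tauto

theorem Inv.zero {k : ℕ} {ks : List ℕ} {acc : List (ℕ × ℕ)} (h : Inv m (k :: ks) acc)
    (hk : k ∉ ks) (h0 : m k = 0) : Inv m ks acc where
  sum n hn := by rw [sum_step hk hn, h0, ite_self, zero_add, h.sum n hn]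
  has d hd := (h.has d hd).imp_left fun h1 =>
    (List.mem_cons.1 h1).resolve_left fun h2 => hd (h2 ▸ h0)
  val := h.val

theorem Inv.cons {k v : ℕ} {ks : List ℕ} {acc : List (ℕ × ℕ)} (h : Inv m (k :: ks) acc)
    (hk : k ∉ ks) (hv : m k = v) (h0 : v ≠ 0) : Inv m ks ((k, v) :: acc) where
  sum n hn := by
    rw [sum_step hk hn, h.sum n hn, S, hv]
    congr 1
    by_cases h1 : k ∣ n
    · rw [if_pos h1, Nat.mod_eq_zero_of_dvd h1]; rfl
    · rw [if_neg h1, beq_false_of_ne (fun h2 => h1 (Nat.dvd_of_mod_eq_zero h2))]; rfl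
  has d hd := by
    rcases h.has d hd with h1 | h1
    · rcases List.mem_cons.1 h1 with rfl | h2
      · exact Or.inr (by simp [Nse.has])
      · exact Or.inl h2
    · exact Or.inr (by rw [Nse.has, List.any_cons]; exact Bool.or_eq_true_iff.2 (Or.inr h1))
  val x hx := by
    rcases List.mem_cons.1 hx with rfl | h1
    · exact ⟨hv, h0⟩
    · exact h.val x h1

theorem go_sound (h : Num m N) {vals : List ℕ} (hv : ∀ k, 2 < k → m k ≠ 0 → m k ∈ vals)
    (lf : List (ℕ × ℕ) → Bool) : ∀ (cs : List (ℕ × ℕ × List ℕ)) (acc : List (ℕ × ℕ)),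
    (cs.map Prod.fst).Pairwise (· < ·) →
    (∀ c ∈ cs, 2 < c.1 ∧ c.2.1 ∣ c.1.totient ∧ ∀ d ∈ c.2.2, d ∣ c.1 ∧ d < c.1) →
    Inv m (cs.map Prod.fst) acc → go vals lf cs acc = true →
    ∃ acc', Inv m [] acc' ∧ lf acc' = true
  | [], acc, _, _, hI, hg => ⟨acc, hI, hg⟩
  | c :: cs, acc, hp, hc, hI, hg => by
    rw [List.map_cons, List.pairwise_cons] at hp
    have hk : c.1 ∉ cs.map Prod.fst := fun h1 => lt_irrefl _ (hp.1 _ h1)
    have hc' := fun x hx => hc x (List.mem_cons_of_mem _ hx)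
    obtain ⟨h2, ht, hd⟩ := hc c List.mem_cons_self
    rw [go, Bool.and_eq_true] at hg
    by_cases h0 : m c.1 = 0
    · exact go_sound h hv lf cs acc hp.2 hc' (hI.zero hk h0) hg.1
    have hI' := hI.cons hk rfl h0
    refine go_sound h hv lf cs _ hp.2 hc' hI' ?_
    have h3 : c.2.2.all (has acc) = true := by
      rw [List.all_eq_true]
      intro d hd'
      obtain ⟨h4, h5⟩ := hd d hd'
      refine (hI.has d (h.dvd _ _ h0 h4)).resolve_left fun h6 => ?_
      rcases List.mem_cons.1 h6 with h7 | h7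
      · exact h5.ne h7
      · exact (hp.1 _ h7).not_gt h5
    have h4 := hg.2
    rw [h3, Bool.not_true, Bool.false_or, List.all_eq_true] at h4
    have h5 := h4 _ (hv _ h2 h0)
    have h6 : m c.1 % c.2.1 = 0 := Nat.mod_eq_zero_of_dvd (ht.trans (h.tot _))
    have h7 : (S acc c.1 + m c.1) % c.1 = 0 := by
      have h8 := h.frob _ (h.ord _ h0)
      have h9 := hI'.sum c.1 (by omega)
      rw [Finset.filter_true_of_mem (p := fun d => d ∉ cs.map Prod.fst)
        (fun d hd' h10 => (hp.1 _ h10).not_ge (Nat.divisor_le hd')), S, Nat.mod_self] at h9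
      rw [h9, add_comm] at h8
      exact Nat.mod_eq_zero_of_dvd h8
    simpa [h6, h7] using h5

theorem S_eq_of_dvd {acc : List (ℕ × ℕ)} {n : ℕ} (h : ∀ x ∈ acc, x.1 ∣ n) : S acc n = S acc 0 := by
  induction acc with
  | nil => rfl
  | cons x l ih =>
    rw [S, S, ih fun y hy => h y (List.mem_cons_of_mem _ hy),
      Nat.mod_eq_zero_of_dvd (h x List.mem_cons_self), Nat.zero_mod]

theorem leaf_sound (h : Num m N) {vals : List ℕ} (hv : ∀ v ∈ vals, v ≠ 0 ∧ ∃ k, m k = v)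
    {tg acc : List (ℕ × ℕ)} (hI : Inv m [] acc) (hl : leaf vals tg acc = true) :
    N = S tg 0 ∧ ∀ n, n ≠ 0 → ∑ d ∈ n.divisors, m d = S tg n := by
  have h1 : ∀ n, n ≠ 0 → ∑ d ∈ n.divisors, m d = S acc n := fun n hn => by
    simpa using hI.sum n hn
  have h2 : ∀ x ∈ acc, x.1 ∣ N := fun x hx =>
    h.ord _ (by rw [(hI.val x hx).1]; exact (hI.val x hx).2)
  have h3 : S acc 0 = N := by rw [← S_eq_of_dvd h2, ← h1 N h.pos, ← h.sum]
  rw [leaf, h3] at hl
  simp only [Bool.or_eq_true, List.any_eq_true, bne_iff_ne, ne_eq, Bool.not_eq_true',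
    Bool.and_eq_true, beq_iff_eq, List.any_eq_false] at hl
  rcases hl with ((⟨x, hx, h4⟩ | ⟨v, hv', h4⟩) | ⟨n, -, h4, h5⟩) | rfl
  · exact absurd (Nat.mod_eq_zero_of_dvd (h2 x hx)) h4
  · obtain ⟨h5, k, rfl⟩ := hv v hv'
    have h6 := (hI.has k h5).resolve_left (by simp)
    simp only [has, List.any_eq_true, beq_iff_eq] at h6
    obtain ⟨x, hx, rfl⟩ := h6
    exact absurd (hI.val x hx).1.symm (h4 x hx)
  · have h6 := h.frob _ (Nat.dvd_of_mod_eq_zero h4)
    rw [h1 _ n.succ_ne_zero] at h6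
    exact absurd (Nat.mod_eq_zero_of_dvd h6) h5
  · exact ⟨h3.symm, h1⟩

/-- Every order divides `L` once the prime powers do. -/
theorem dvd_of_prime_pow (h : Num m N) {L : ℕ}
    (hL : ∀ p, p.Prime → m p ≠ 0 → ∃ e, p ^ e ∣ L ∧ m (p ^ (e + 1)) = 0) {k : ℕ} (hk : m k ≠ 0) :
    k ∣ L := by
  rw [Nat.dvd_iff_prime_pow_dvd_dvd]
  intro p a hp hpa
  rcases Nat.eq_zero_or_pos a with rfl | ha
  · simp
  obtain ⟨e, he, h0⟩ := hL p hp (h.dvd _ _ hk ((dvd_pow_self p ha.ne').trans hpa))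
  refine (pow_dvd_pow p ?_).trans he
  by_contra h1
  exact h.dvd _ _ hk ((pow_dvd_pow p (by omega)).trans hpa) h0

theorem Num.prime (h : Num m N) {p : ℕ} (hp : p.Prime) (h0 : m p ≠ 0) :
    p ∣ 1 + m p ∧ p - 1 ∣ m p := by
  have h1 := h.frob p (h.ord p h0)
  rw [hp.sum_divisors, h.one, add_comm] at h1
  exact ⟨h1, Nat.totient_prime hp ▸ h.tot p⟩

theorem Num.zero (h : Num m N) : m 0 = 0 := by
  by_contra h0
  exact h.pos (zero_dvd_iff.1 (h.ord 0 h0))

theorem Num.even (h : Num m N) {k : ℕ} (hk : 2 < k) : 2 ∣ m k :=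
  (Nat.totient_even hk).two_dvd.trans (h.tot k)

/-- The main numerical theorem. -/
theorem main (h : Num m N) {a : ℕ} {vals : List ℕ} (ha : a % 2 = 1) (ha1 : a ≠ 1)
    (hv : ∀ v, v ≠ 0 → ((∃ k, m k = v) ↔ v ∈ 1 :: a :: vals)) (hv0 : 0 ∉ vals) {L : ℕ}
    (hL : m 2 = a → (∀ k, 2 < k → m k ≠ 0 → m k ∈ vals) →
      ∀ p, p.Prime → m p ≠ 0 → ∃ e, p ^ e ∣ L ∧ m (p ^ (e + 1)) = 0)
    (cs : List (ℕ × ℕ × List ℕ)) (hcs : ∀ k, k ∣ L → k ∈ 1 :: 2 :: cs.map Prod.fst)
    (hp : (cs.map Prod.fst).Pairwise (· < ·))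
    (hc : ∀ c ∈ cs, 2 < c.1 ∧ c.2.1 ∣ c.1.totient ∧ ∀ d ∈ c.2.2, d ∣ c.1 ∧ d < c.1)
    {tg : List (ℕ × ℕ)} (hg : go vals (leaf vals tg) cs [(2, a), (1, 1)] = true) :
    N = S tg 0 ∧ ∀ n, n ≠ 0 → ∑ d ∈ n.divisors, m d = S tg n := by
  have h2 : m 2 = a := by
    obtain ⟨k, hk⟩ := (hv a (by omega)).2 (by simp)
    by_contra h3
    rcases (by omega : k = 0 ∨ k = 1 ∨ k = 2 ∨ 2 < k) with rfl | rfl | rfl | h4
    · rw [h.zero] at hk; omega
    · exact ha1 (hk.symm.trans h.one)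
    · exact h3 hk
    · have := h.even h4; omega
  have h3 : ∀ k, 2 < k → m k ≠ 0 → m k ∈ vals := by
    intro k hk h0
    have h4 := (hv _ h0).1 ⟨k, rfl⟩
    have h5 := h.even hk
    simp only [List.mem_cons] at h4
    rcases h4 with h4 | h4 | h4
    · omega
    · omega
    · exact h4
  have h4 : ∀ k ∈ cs.map Prod.fst, 2 < k := by
    intro k hk
    obtain ⟨c, hc', rfl⟩ := List.mem_map.1 hk
    exact (hc c hc').1
  have h5 : Inv m (1 :: 2 :: cs.map Prod.fst) [] :=
    ⟨fun n _ => Finset.sum_eq_zero fun d hd => by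
        by_contra h0
        exact (Finset.mem_filter.1 hd).2 (hcs d (dvd_of_prime_pow h (hL h2 h3) h0)),
      fun d hd => Or.inl (hcs d (dvd_of_prime_pow h (hL h2 h3) hd)), by simp⟩
  have h6 := (h5.cons (fun h0 => by
      rcases List.mem_cons.1 h0 with h1 | h1
      · omega
      · exact absurd (h4 _ h1) (by omega)) h.one one_ne_zero).cons
    (fun h0 => absurd (h4 _ h0) (by omega)) h2 (by omega)
  obtain ⟨acc, h7, h8⟩ := go_sound h h3 _ cs _ hp hc h6 hg
  refine leaf_sound h (fun v hv' => ?_) h7 h8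
  have h9 : v ≠ 0 := fun h0 => hv0 (h0 ▸ hv')
  exact ⟨h9, (hv v h9).2 (by simp [hv'])⟩

theorem mem_of_dvd {L : ℕ} {l : List ℕ} (hL : L ≠ 0)
    (h : (List.range (L + 1)).all (fun k => L % k != 0 || l.contains k) = true) (k : ℕ)
    (hk : k ∣ L) : k ∈ l := by
  rw [List.all_eq_true] at h
  have := h k (List.mem_range.2 (Nat.lt_succ_of_le (Nat.le_of_dvd (Nat.pos_of_ne_zero hL) hk)))
  simpa [Nat.mod_eq_zero_of_dvd hk] using this

/-- Candidate orders, `A₄`. -/
def cs4 : List (ℕ × ℕ × List ℕ) :=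
  [(3, 2, [1]), (4, 2, [2]), (6, 2, [3, 2]), (12, 4, [6, 4])]

/-- Candidate orders, `A₅`. -/
def cs5 : List (ℕ × ℕ × List ℕ) :=
  [(3, 2, [1]), (4, 2, [2]), (5, 4, [1]), (6, 2, [3, 2]), (8, 4, [4]), (9, 6, [3]),
   (10, 4, [5, 2]), (12, 4, [6, 4]), (15, 8, [5, 3]), (16, 8, [8]), (18, 6, [9, 6]),
   (20, 8, [10, 4]), (24, 8, [12, 8]), (30, 8, [15, 10, 6]), (36, 12, [18, 12]),
   (40, 16, [20, 8]), (45, 24, [15, 9]), (48, 16, [24, 16]), (60, 16, [30, 20, 12]),
   (72, 24, [36, 24]), (80, 32, [40, 16]), (90, 24, [45, 30, 18]), (120, 1, [60, 40, 24]),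
   (144, 1, [72, 48]), (180, 1, [90, 60, 36]), (240, 1, [120, 80, 48]), (360, 1, [180, 120, 72]),
   (720, 1, [360, 240, 144])]

/-- Candidate orders, `A₆`. -/
def cs6 : List (ℕ × ℕ × List ℕ) :=
  [(3, 2, [1]), (4, 2, [2]), (5, 4, [1]), (6, 2, [3, 2]), (7, 6, [1]), (8, 4, [4]), (9, 6, [3]),
   (10, 4, [5, 2]), (12, 4, [6, 4]), (14, 6, [7, 2]), (15, 8, [5, 3]), (18, 6, [9, 6]),
   (20, 8, [10, 4]), (21, 12, [7, 3]), (24, 8, [12, 8]), (25, 20, [5]), (28, 12, [14, 4]),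
   (30, 8, [15, 10, 6]), (35, 24, [7, 5]), (36, 12, [18, 12]), (40, 16, [20, 8]),
   (42, 12, [21, 14, 6]), (45, 24, [15, 9]), (50, 20, [25, 10]), (56, 24, [28, 8]),
   (60, 16, [30, 20, 12]), (63, 36, [21, 9]), (70, 24, [35, 14, 10]), (72, 24, [36, 24]),
   (75, 40, [25, 15]), (84, 24, [42, 28, 12]), (90, 24, [45, 30, 18]), (100, 40, [50, 20]),
   (105, 1, [35, 21, 15]), (120, 1, [60, 40, 24]), (126, 1, [63, 42, 18]),
   (140, 1, [70, 28, 20]), (150, 1, [75, 50, 30]), (168, 1, [84, 56, 24]), (175, 1, [35, 25]),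
   (180, 1, [90, 60, 36]), (200, 1, [100, 40]), (210, 1, [105, 70, 42, 30]), (225, 1, [75, 45]),
   (252, 1, [126, 84, 36]), (280, 1, [140, 56, 40]), (300, 1, [150, 100, 60]),
   (315, 1, [105, 63, 45]), (350, 1, [175, 70, 50]), (360, 1, [180, 120, 72]),
   (420, 1, [210, 140, 84, 60]), (450, 1, [225, 150, 90]), (504, 1, [252, 168, 72]),
   (525, 1, [175, 105, 75]), (600, 1, [300, 200, 120]), (630, 1, [315, 210, 126, 90]),
   (700, 1, [350, 140, 100]), (840, 1, [420, 280, 168, 120]), (900, 1, [450, 300, 180]),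
   (1050, 1, [525, 350, 210, 150]), (1260, 1, [630, 420, 252, 180]), (1400, 1, [700, 280, 200]),
   (1575, 1, [525, 315, 225]), (1800, 1, [900, 600, 360]), (2100, 1, [1050, 700, 420, 300]),
   (2520, 1, [1260, 840, 504, 360]), (3150, 1, [1575, 1050, 630, 450]),
   (4200, 1, [2100, 1400, 840, 600]), (6300, 1, [3150, 2100, 1260, 900]),
   (12600, 1, [6300, 4200, 2520, 1800])]

theorem go4 : go [8] (leaf [8] [(3, 8), (2, 3), (1, 1)]) cs4 [(2, 3), (1, 1)] = true := by
  decide +kernel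

theorem go5 : go [20, 24] (leaf [20, 24] [(5, 24), (3, 20), (2, 15), (1, 1)]) cs5
    [(2, 15), (1, 1)] = true := by
  decide +kernel

theorem go6 : go [80, 90, 144] (leaf [80, 90, 144] [(5, 144), (4, 90), (3, 80), (2, 45), (1, 1)])
    cs6 [(2, 45), (1, 1)] = true := by
  decide +kernel

theorem Num.pow (h : Num m N) {p : ℕ} (hp : p.Prime) {e : ℕ} (h0 : m (p ^ e) ≠ 0) :
    p ^ e ∣ ∑ i ∈ range (e + 1), m (p ^ i) := by
  have h1 := h.frob _ (h.ord _ h0)
  rwa [Nat.sum_divisors_prime_pow hp] at h1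

theorem Num.zero_of_tot (h : Num m N) {vals : List ℕ} (hv : ∀ k, 2 < k → m k ≠ 0 → m k ∈ vals)
    {k t : ℕ} (hk : 2 < k) (ht : k.totient = t) (h0 : ∀ v ∈ vals, ¬ t ∣ v) : m k = 0 := by
  by_contra h1
  exact h0 _ (hv k hk h1) (ht ▸ h.tot k)

theorem main4 (h : Num m N) (hv : ∀ v, v ≠ 0 → ((∃ k, m k = v) ↔ v ∈ [1, 3, 8])) :
    N = 12 ∧ ∀ n, n ≠ 0 → ∑ d ∈ n.divisors, m d = S [(3, 8), (2, 3), (1, 1)] n := by
  refine main h (by norm_num) (by norm_num) hv (by simp) (L := 12) (fun h2 h3 p hp h0 => ?_) cs4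
    (mem_of_dvd (by norm_num) (by decide +kernel)) (by decide +kernel) (by decide +kernel) go4
  rcases hp.eq_two_or_odd' with rfl | hodd
  · refine ⟨2, by norm_num, ?_⟩
    by_contra h4
    have h5 := h.pow Nat.prime_two h4
    have h6 := h3 _ (by norm_num) h4
    have h7 := h3 _ (by norm_num) (h.dvd _ 4 h4 (by norm_num))
    simp only [sum_range_succ, range_one, sum_singleton] at h5
    norm_num [h.one, h2] at h5 h6 h7
    omega
  have hp2 : 2 < p := lt_of_le_of_ne hp.two_le (by rintro rfl; exact absurd hodd (by decide))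
  have h4 := h.prime hp h0
  have h5 := h3 p hp2 h0
  simp only [List.mem_singleton] at h5
  rw [h5] at h4
  have h6 : p = 3 := (Nat.prime_dvd_prime_iff_eq hp Nat.prime_three).1
    (hp.dvd_of_dvd_pow (n := 2) h4.1)
  subst h6
  exact ⟨1, by norm_num, h.zero_of_tot h3 (t := 6) (by norm_num) (by decide +kernel) (by decide)⟩

theorem main5 (h : Num m N) (hv : ∀ v, v ≠ 0 → ((∃ k, m k = v) ↔ v ∈ [1, 15, 20, 24])) :
    N = 60 ∧ ∀ n, n ≠ 0 → ∑ d ∈ n.divisors, m d = S [(5, 24), (3, 20), (2, 15), (1, 1)] n := by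
  refine main h (by norm_num) (by norm_num) hv (by simp) (L := 720) (fun h2 h3 p hp h0 => ?_) cs5
    (mem_of_dvd (by norm_num) (by decide +kernel)) (by decide +kernel) (by decide +kernel) go5
  rcases hp.eq_two_or_odd' with rfl | hodd
  · exact ⟨4, by norm_num, h.zero_of_tot h3 (t := 16) (by norm_num) (by decide +kernel)
      (by decide)⟩
  have hp2 : 2 < p := lt_of_le_of_ne hp.two_le (by rintro rfl; exact absurd hodd (by decide))
  have h4 := h.prime hp h0
  have h5 := h3 p hp2 h0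
  have h6 : p ∈ [3, 5, 21, 25] := by
    have key : ∀ v ∈ [20, 24], ∀ q ∈ List.range 26, 2 < q → q ∣ 1 + v → q - 1 ∣ v →
        q ∈ [3, 5, 21, 25] := by decide +kernel
    refine key _ h5 p (List.mem_range.2 ?_) hp2 h4.1 h4.2
    have := Nat.le_of_dvd (by omega) h4.1
    simp only [List.mem_cons, List.not_mem_nil, or_false] at h5
    omega
  simp only [List.mem_cons, List.not_mem_nil, or_false] at h6
  rcases h6 with rfl | rfl | rfl | rfl
  · exact ⟨2, by norm_num, h.zero_of_tot h3 (t := 18) (by norm_num) (by decide +kernel)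
      (by decide)⟩
  · refine ⟨1, by norm_num, ?_⟩
    by_contra h7
    have h8 := h.pow hp h7
    have h9 := h3 _ (by norm_num) h7
    have h10 := h.tot 25
    rw [show Nat.totient 25 = 20 by decide +kernel] at h10
    simp only [sum_range_succ, range_one, sum_singleton] at h8
    norm_num [h.one] at h4 h5 h8 h9
    omega
  · norm_num at hp
  · norm_num at hp

theorem main6 (h : Num m N) (hv : ∀ v, v ≠ 0 → ((∃ k, m k = v) ↔ v ∈ [1, 45, 80, 90, 144])) :
    N = 360 ∧ ∀ n, n ≠ 0 →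
      ∑ d ∈ n.divisors, m d = S [(5, 144), (4, 90), (3, 80), (2, 45), (1, 1)] n := by
  refine main h (by norm_num) (by norm_num) hv (by simp) (L := 12600) (fun h2 h3 p hp h0 => ?_) cs6
    (mem_of_dvd (by norm_num) (by decide +kernel)) (by decide +kernel) (by decide +kernel) go6
  rcases hp.eq_two_or_odd' with rfl | hodd
  · refine ⟨3, by norm_num, ?_⟩
    by_contra h4
    have h8 : m (2 ^ 3) ≠ 0 := h.dvd _ _ h4 (by norm_num)
    have h9 : m (2 ^ 2) ≠ 0 := h.dvd _ _ h4 (by norm_num)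
    have h5 := h.pow Nat.prime_two h4
    have h5' := h.pow Nat.prime_two h8
    have h5'' := h.pow Nat.prime_two h9
    have h6 := h3 _ (by norm_num) h4
    have h7 := h3 _ (by norm_num) h8
    have h7' := h3 _ (by norm_num) h9
    have h10 := h.tot 16
    rw [show Nat.totient 16 = 8 by decide +kernel] at h10
    simp only [sum_range_succ, range_one, sum_singleton] at h5 h5' h5''
    norm_num [h.one, h2] at h5 h5' h5'' h6 h7 h7'
    omega
  have hp2 : 2 < p := lt_of_le_of_ne hp.two_le (by rintro rfl; exact absurd hodd (by decide))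
  have h4 := h.prime hp h0
  have h5 := h3 p hp2 h0
  have h6 : p ∈ [3, 5, 7, 9, 81, 91, 145] := by
    have key : ∀ v ∈ [80, 90, 144], ∀ q ∈ List.range 146, 2 < q → q ∣ 1 + v → q - 1 ∣ v →
        q ∈ [3, 5, 7, 9, 81, 91, 145] := by decide +kernel
    refine key _ h5 p (List.mem_range.2 ?_) hp2 h4.1 h4.2
    have := Nat.le_of_dvd (by omega) h4.1
    simp only [List.mem_cons, List.not_mem_nil, or_false] at h5
    omega
  simp only [List.mem_cons, List.not_mem_nil, or_false] at h6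
  rcases h6 with rfl | rfl | rfl | rfl | rfl | rfl | rfl
  · refine ⟨2, by norm_num, ?_⟩
    by_contra h7
    have h7' : m (3 ^ 2) ≠ 0 := h.dvd _ _ h7 (by norm_num)
    have h8 := h.pow hp h7
    have h8' := h.pow hp h7'
    have h9 := h3 _ (by norm_num) h7
    have h9' := h3 _ (by norm_num) h7'
    have h10 := h.tot 27
    rw [show Nat.totient 27 = 18 by decide +kernel] at h10
    simp only [sum_range_succ, range_one, sum_singleton] at h8 h8'
    norm_num [h.one] at h4 h5 h8 h8' h9 h9'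
    omega
  · exact ⟨2, by norm_num, h.zero_of_tot h3 (t := 100) (by norm_num) (by decide +kernel)
      (by decide)⟩
  · exact ⟨1, by norm_num, h.zero_of_tot h3 (t := 42) (by norm_num) (by decide +kernel)
      (by decide)⟩
  all_goals norm_num at hp

end Cfsg.Lib.Nse
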